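import Mathlib
import Cfsg.Agent.Lib.Helper55.OOG.Defs

/-!
# Project OOG (S2413), package [SHORT]

One short root element `ρ_{e_0,t}`, the torus element and the Coxeter element give all short
root elements.
-/

set_option autoImplicit false
open scoped Matrix

namespace Cfsg.Agent.Lib.Helper52.OOG

open Cfsg.Agent.Lib.Helper55.OOG

universe u

/-- conjugating `ρ_{u₀, c t}` by `g` with `g u₀ = ε u₁`, `g t = δ t` gives `ρ_{u₁, ε c δ t}`. -/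
theorem conj_scale (hAlg : PkgAlg.{u}) (hConj : PkgConj.{u}) {m : ℕ} {F : Type u} [Field F]
    (u₀ u₁ : Vec m F) (hu₁ : QF m F u₁ = 0) (g σ : ↥(Iso m F)) (ε δ c : F)
    (hg : mat g *ᵥ u₀ = ε • u₁) (hT : mat g *ᵥ (T0 : Vec m F) = δ • T0)
    (hσ : IsSieg u₀ (c • T0) σ) : IsSieg u₁ ((ε * c * δ) • T0) (g * σ * g⁻¹) := by
  have h1 := hConj m F u₀ (c • T0) g σ hσ
  rw [hg, Matrix.mulVec_smul, hT] at h1
  have h2 := ((hAlg m F u₁ hu₁).2.2.2.1 ε (c • δ • T0) (g * σ * g⁻¹)).mp h1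
  have e : ε • c • δ • (T0 : Vec m F) = (ε * c * δ) • T0 := by
    rw [smul_smul, smul_smul]
  rw [e] at h2
  exact h2

/-- **[SHORT]** -/
theorem pkgShort_of (hExist : PkgExist.{u}) (hAlg : PkgAlg.{u}) (hConj : PkgConj.{u})
    (hOrb : PkgOrb.{u}) : PkgShort.{u} := by
  intro n F _ K s h b i₁ k hk hspan hs hh hhT hb hsK hhK hbK
  have hzK : ∀ g ∈ Subgroup.zpowers b, g ∈ K := by
    intro g hg
    exact (Subgroup.zpowers_le.mpr hbK) hg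
  have hBE : ∀ (i : Fin (n + 1)) (c : F), B (E i : Vec (n + 1) F) (c • T0) = 0 := by
    intro i c; rw [B_smul_right, B_E_T0, mul_zero]
  -- step 1
  obtain ⟨⟨g₁, hg₁, ε₁, δ₁, hε₁, hδ₁, hg₁E, hg₁T⟩, -⟩ := hOrb n F b hb i₁
  have hg₁K := hzK g₁ hg₁
  have hs1 : IsSieg (E 0 : Vec (n + 1) F) ((1 : F) • T0) s := by rw [one_smul]; exact hs
  have h1 := conj_scale hAlg hConj (E 0) (E i₁) (Q_E i₁) g₁ s ε₁ δ₁ 1 hg₁E hg₁T hs1
  obtain ⟨c₀, hc₀⟩ : ∃ c₀ : F, c₀ = ε₁ * 1 * δ₁ := ⟨_, rfl⟩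
  have hc₀ne : c₀ ≠ 0 := by rw [hc₀, mul_one]; exact mul_ne_zero hε₁ hδ₁
  rw [← hc₀] at h1
  have h1K : g₁ * s * g₁⁻¹ ∈ K := K.mul_mem (K.mul_mem hg₁K hsK) (K.inv_mem hg₁K)
  -- step 2: the additive subgroup
  let A : AddSubgroup F :=
    { carrier := {x | ∀ σ : ↥(Iso (n + 1) F), IsSieg (E i₁) ((x * c₀) • T0) σ → σ ∈ K}
      zero_mem' := by
        intro σ hσ
        have e : ((0 : F) * c₀) • (T0 : Vec (n + 1) F) = 0 := by rw [zero_mul, zero_smul]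
        rw [e] at hσ
        rw [isSieg_ext hσ (hAlg (n + 1) F (E i₁) (Q_E i₁)).1]
        exact K.one_mem
      add_mem' := by
        intro x y hx hy σ hσ
        obtain ⟨σx, hσx⟩ := hExist (n + 1) F (E i₁) ((x * c₀) • T0) (Q_E i₁) (hBE i₁ _)
        obtain ⟨σy, hσy⟩ := hExist (n + 1) F (E i₁) ((y * c₀) • T0) (Q_E i₁) (hBE i₁ _)
        have h2 := (hAlg (n + 1) F (E i₁) (Q_E i₁)).2.1 _ _ σx σy (hBE i₁ _) (hBE i₁ _) hσx hσy
        have e : ((x + y) * c₀) • (T0 : Vec (n + 1) F) = (x * c₀) • T0 + (y * c₀) • T0 := by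
          rw [add_mul, add_smul]
        rw [e] at hσ
        rw [isSieg_ext hσ h2]
        exact K.mul_mem (hx σx hσx) (hy σy hσy)
      neg_mem' := by
        intro x hx σ hσ
        obtain ⟨σx, hσx⟩ := hExist (n + 1) F (E i₁) ((x * c₀) • T0) (Q_E i₁) (hBE i₁ _)
        have h2 := (hAlg (n + 1) F (E i₁) (Q_E i₁)).2.2.1 _ σx (hBE i₁ _) hσx
        have e : ((-x) * c₀) • (T0 : Vec (n + 1) F) = -((x * c₀) • T0) := by
          rw [neg_mul, neg_smul]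
        rw [e] at hσ
        rw [isSieg_ext hσ h2]
        exact K.inv_mem (hx σx hσx) }
  have hAmem : ∀ x : F, x ∈ A ↔
      ∀ σ : ↥(Iso (n + 1) F), IsSieg (E i₁) ((x * c₀) • T0) σ → σ ∈ K := fun x => Iff.rfl
  have hA1 : (1 : F) ∈ A := by
    rw [hAmem]
    intro σ hσ
    rw [one_mul] at hσ
    rw [isSieg_ext hσ h1]
    exact h1K
  have hAk : ∀ x ∈ A, k * k * x ∈ A := by
    intro x hx
    rw [hAmem] at hx ⊢
    intro σ hσ
    obtain ⟨σx, hσx⟩ := hExist (n + 1) F (E i₁) ((x * c₀) • T0) (Q_E i₁) (hBE i₁ _)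
    have hT1 : mat h *ᵥ (T0 : Vec (n + 1) F) = (1 : F) • T0 := by rw [one_smul]; exact hhT
    have h2 := conj_scale hAlg hConj (E i₁) (E i₁) (Q_E i₁) h σx (k * k) 1 (x * c₀) hh hT1 hσx
    have e : (k * k * (x * c₀) * 1) = (k * k * x * c₀) := by ring
    rw [e] at h2
    rw [isSieg_ext hσ h2]
    exact K.mul_mem (K.mul_mem hhK (hx σx hσx)) (K.inv_mem hhK)
  have hAtop : A = ⊤ := hspan A hA1 hAk
  have hall₁ : ∀ (c : F) (σ : ↥(Iso (n + 1) F)), IsSieg (E i₁) (c • T0) σ → σ ∈ K := by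
    intro c σ hσ
    have hx : c / c₀ ∈ A := by rw [hAtop]; exact AddSubgroup.mem_top _
    rw [hAmem] at hx
    apply hx σ
    rw [div_mul_cancel₀ c hc₀ne]
    exact hσ
  -- step 3
  have hall₀ : ∀ (c : F) (σ : ↥(Iso (n + 1) F)), IsSieg (E 0) (c • T0) σ → σ ∈ K := by
    intro c σ hσ
    have h2 := conj_scale hAlg hConj (E 0) (E i₁) (Q_E i₁) g₁ σ ε₁ δ₁ c hg₁E hg₁T hσ
    have h3 := hall₁ _ _ h2
    have e : σ = g₁⁻¹ * (g₁ * σ * g₁⁻¹) * g₁ := by group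
    rw [e]
    exact K.mul_mem (K.mul_mem (K.inv_mem hg₁K) h3) hg₁K
  -- step 4
  intro i c σ
  obtain ⟨⟨g, hg, ε, δ, hε, hδ, hgE, hgT⟩, ⟨g', hg', ε', δ', hε', hδ', hgE', hgT'⟩⟩ :=
    hOrb n F b hb i
  constructor
  · intro hσ
    obtain ⟨σ₀, hσ₀⟩ := hExist (n + 1) F (E 0) ((c / (ε * δ)) • T0) (Q_E 0) (hBE 0 _)
    have h2 := conj_scale hAlg hConj (E 0) (E i) (Q_E i) g σ₀ ε δ (c / (ε * δ)) hgE hgT hσ₀
    have e : ε * (c / (ε * δ)) * δ = c := by field_simp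
    rw [e] at h2
    rw [isSieg_ext hσ h2]
    have hgK := hzK g hg
    exact K.mul_mem (K.mul_mem hgK (hall₀ _ _ hσ₀)) (K.inv_mem hgK)
  · intro hσ
    obtain ⟨σ₀, hσ₀⟩ := hExist (n + 1) F (E 0) ((c / (ε' * δ')) • T0) (Q_E 0) (hBE 0 _)
    have h2 := conj_scale hAlg hConj (E 0) (Fv i) (Q_Fv i) g' σ₀ ε' δ' (c / (ε' * δ')) hgE' hgT'
      hσ₀
    have e : ε' * (c / (ε' * δ')) * δ' = c := by field_simp
    rw [e] at h2
    rw [isSieg_ext hσ h2]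
    have hgK := hzK g' hg'
    exact K.mul_mem (K.mul_mem hgK (hall₀ _ _ hσ₀)) (K.inv_mem hgK)

end Cfsg.Agent.Lib.Helper52.OOG
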